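import Mathlib
import Cfsg.Agent.Lib.ThreeTrans.Classes
import Cfsg.Agent.Lib.Invol.Dihedral

/-!
# Closed sets of involutions whose non-commuting pairs have product of one odd prime order
-/

set_option autoImplicit false

namespace CfsgLib.PTrans

open Cfsg Subgroup CfsgLib.ThreeTrans

variable {G : Type*} [Group G] {D : Set G} {p : ℕ}

structure PT (p : ℕ) (D : Set G) : Prop where
  prime : p.Prime
  ne_two : p ≠ 2
  ord : ∀ d ∈ D, orderOf d = 2
  pow : ∀ a ∈ D, ∀ b ∈ D, ¬ Commute a b → (a * b) ^ p = 1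
  conj : ∀ a ∈ D, ∀ b ∈ D, a * b * a ∈ D

theorem eq_one_of_odd {n : ℕ} (hn : Odd n) {x : G} (h1 : x ^ n = 1) (h2 : x * x = 1) : x = 1 := by
  obtain ⟨k, rfl⟩ := hn
  rwa [pow_succ, pow_mul, pow_two, h2, one_pow, one_mul] at h1

theorem eq_pow_sq {k : ℕ} {x : G} (h1 : x ^ (2 * k + 1) = 1) : (x * x) ^ (k + 1) = x := by
  rw [← pow_two, ← pow_mul, show 2 * (k + 1) = 2 * k + 1 + 1 by ring, pow_succ, h1, one_mul]

theorem sq_eq_one_of_inverts {n : ℕ} (hn : Odd n) {a t : G} (ha : a ^ n = 1) (h : a * t * a⁻¹ = t⁻¹) : t * t = 1 := by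
  obtain ⟨k, rfl⟩ := hn
  have h2 : Commute (a * a) t := by
    have : a * a * t * (a * a)⁻¹ = t := by
      calc a * a * t * (a * a)⁻¹ = a * (a * t * a⁻¹) * a⁻¹ := by group
        _ = a * t⁻¹ * a⁻¹ := by rw [h]
        _ = (a * t * a⁻¹)⁻¹ := by group
        _ = t := by rw [h, inv_inv]
    exact mul_inv_eq_iff_eq_mul.1 this
  have h3 : Commute a t := eq_pow_sq ha ▸ h2.pow_left _
  rw [h3.eq, mul_inv_cancel_right] at h
  nth_rw 1 [h]; exact inv_mul_cancel t

namespace PT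
variable (h : PT p D)
include h

theorem odd : Odd p := h.prime.odd_of_ne_two h.ne_two

theorem sq {a : G} (ha : a ∈ D) : a * a = 1 := Invol.mul_self_of_orderOf_two (h.ord a ha)

theorem inv {a : G} (ha : a ∈ D) : a⁻¹ = a := inv_eq_of_mul_eq_one_left (h.sq ha)

theorem ne_one {a : G} (ha : a ∈ D) : a ≠ 1 := Invol.ne_one_of_orderOf_two (h.ord a ha)

theorem cancel {a : G} (ha : a ∈ D) (x : G) : a * (a * x) = x := by rw [← mul_assoc, h.sq ha, one_mul]

theorem eq_of_mul {a b : G} (ha : a ∈ D) (e : a * b = 1) : a = b := by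
  rw [← h.cancel ha b, e, mul_one]

theorem sub {E : Set G} (hE : E ⊆ D) (hc : ∀ a ∈ E, ∀ b ∈ E, a * b * a ∈ E) : PT p E :=
  ⟨h.prime, h.ne_two, fun d hd => h.ord d (hE hd), fun a ha b hb => h.pow a (hE ha) b (hE hb), hc⟩

theorem cent (e : G) : PT p {d | d ∈ D ∧ Commute e d} :=
  h.sub (fun _ hd => hd.1) fun a ha b hb => ⟨h.conj a ha.1 b hb.1, (ha.2.mul_right hb.2).mul_right ha.2⟩

theorem conj_mem {g : G} (hg : g ∈ closure D) {d : G} (hd : d ∈ D) : g * d * g⁻¹ ∈ D := by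
  have : (∀ d ∈ D, g * d * g⁻¹ ∈ D) ∧ ∀ d ∈ D, g⁻¹ * d * g ∈ D := by
    induction hg using closure_induction with
    | mem x hx =>
      exact ⟨fun d hd => by rw [h.inv hx]; exact h.conj x hx d hd, fun d hd => by rw [h.inv hx]; exact h.conj x hx d hd⟩
    | one => simp
    | mul x y _ _ hx hy =>
      exact ⟨fun d hd => by simpa [mul_assoc] using hx.1 _ (hy.1 d hd),
        fun d hd => by simpa [mul_assoc] using hy.2 _ (hx.2 d hd)⟩
    | inv x _ hx => exact ⟨fun d hd => by simpa using hx.2 d hd, fun d hd => by simpa using hx.1 d hd⟩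
  exact this.1 _ hd

theorem mul_ne_one {a b : G} (ha : a ∈ D) (hab : ¬ Commute a b) : a * b ≠ 1 := fun e =>
  hab (h.eq_of_mul ha e ▸ Commute.refl a)

theorem orderOf_mul {a b : G} (ha : a ∈ D) (hb : b ∈ D) (hab : ¬ Commute a b) : orderOf (a * b) = p :=
  have := Fact.mk h.prime
  orderOf_eq_prime (h.pow a ha b hb hab) (h.mul_ne_one ha hab)

theorem sq_mul {a b : G} (ha : a ∈ D) (hb : b ∈ D) (hab : Commute a b) : a * b * (a * b) = 1 := by
  rw [← pow_two]; exact sq_of_commute (h.sq ha) (h.sq hb) hab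

theorem eq_of_pow {a b : G} (ha : a ∈ D) (hb : b ∈ D) (hab : Commute a b) {n : ℕ} (hn : Odd n)
    (e : (a * b) ^ n = 1) : a = b := h.eq_of_mul ha (eq_one_of_odd hn e (h.sq_mul ha hb hab))

theorem not_commute_conj {a b : G} (ha : a ∈ D) (hb : b ∈ D) (hab : ¬ Commute a b) : ¬ Commute a (b * a * b) := by
  intro hc
  have h1 := h.sq_mul ha (h.conj b hb a ha) hc
  have h2 : (a * b * (a * b)) ^ p = 1 := by rw [← pow_two, ← pow_mul, mul_comm, pow_mul, h.pow a ha b hb hab, one_pow]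
  have h3 := eq_one_of_odd h.odd h2 (by simpa only [mul_assoc] using h1)
  exact h.mul_ne_one ha hab (eq_one_of_odd h.odd (h.pow a ha b hb hab) h3)

theorem commute_of_conj {a b e : G} (ha : a ∈ D) (hb : b ∈ D) (hab : ¬ Commute a b) (h1 : Commute e a)
    (h2 : Commute e (b * a * b)) : Commute e b := by
  obtain ⟨k, hk⟩ := h.odd
  have h3 : Commute e (a * b * (a * b)) := by simpa only [mul_assoc] using h1.mul_right h2
  have h4 : Commute e (a * b) := eq_pow_sq (hk ▸ h.pow a ha b hb hab) ▸ h3.pow_right _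
  simpa only [h.cancel ha] using h1.mul_right h4

theorem conj_ne {a b : G} (ha : a ∈ D) (hab : ¬ Commute a b) : a * b * a ≠ b :=
  fun e => hab (commute_of_conj_eq (h.sq ha) e)

/-- the member interchanging two non-commuting members is unique -/
theorem swap_unique {a b y : G} (ha : a ∈ D) (hb : b ∈ D) (hy : y ∈ D) (hay : ¬ Commute a y)
    (e : a * y * a = b * y * b) : a = b := by
  obtain ⟨k, hk⟩ := h.odd
  have hby : ¬ Commute b y := fun hc => h.conj_ne ha hay (e.trans (conj_eq_of_commute (h.sq hb) hc))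
  have h1 := eq_pow_sq (hk ▸ h.pow y hy a ha fun hc => hay hc.symm)
  have h2 := eq_pow_sq (hk ▸ h.pow y hy b hb fun hc => hby hc.symm)
  have h3 : y * a * (y * a) = y * b * (y * b) := by
    simpa only [mul_assoc] using congrArg (y * ·) e
  rw [h3, h2] at h1
  exact (mul_left_cancel h1).symm

theorem exists_swap' {y y' : G} (hy : y ∈ D) (hy' : y' ∈ D) (hn : ¬ Commute y y') :
    ∃ w ∈ D, w * y * w = y' ∧ ¬ Commute w y ∧ ∃ k : ℕ, w = y * (y * y') ^ k := by
  obtain ⟨k, hk⟩ := h.odd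
  have hi := Invol.conj_mul_eq_inv (h.sq hy) (h.sq hy')
  have ht : (y * y') ^ (2 * k + 1) = 1 := hk ▸ h.pow y hy y' hy' hn
  set t := y * y' with ht'
  have htD : t ∈ closure D := mul_mem (subset_closure hy) (subset_closure hy')
  have e1 : ∀ j : ℕ, y * t ^ j * y = (t ^ j)⁻¹ := fun j => by
    have := Invol.conj_pow_of_inverts hi j
    rwa [h.inv hy] at this
  have e2 : ∀ j : ℕ, (t ^ j)⁻¹ * y * (t ^ j)⁻¹⁻¹ = y * (t * t) ^ j := fun j => by
    rw [inv_inv, ← e1 j, mul_assoc _ y y, h.sq hy, mul_one, mul_assoc, (Commute.refl t).mul_pow]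
  have e3 : y * t ^ (k + 1) * y * (y * t ^ (k + 1)) = y' := by
    rw [mul_assoc _ y, h.cancel hy, mul_assoc, ← (Commute.refl t).mul_pow, eq_pow_sq ht, ht', h.cancel hy]
  refine ⟨y * t ^ (k + 1), ?_, e3, fun hc => hn ?_, k + 1, rfl⟩
  · have := h.conj_mem (inv_mem (pow_mem htD ((k + 1) * (k + 1)))) hy
    rwa [e2, pow_mul, eq_pow_sq ht] at this
  · rw [← e3]; exact (hc.symm.mul_right (Commute.refl y)).mul_right hc.symm

theorem exists_swap {y y' : G} (hy : y ∈ D) (hy' : y' ∈ D) (hn : ¬ Commute y y') :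
    ∃ w ∈ D, w * y * w = y' ∧ ¬ Commute w y :=
  let ⟨w, h1, h2, h3, _⟩ := h.exists_swap' hy hy' hn
  ⟨w, h1, h2, h3⟩

theorem exists_conj {a b : G} (ha : a ∈ D) (hb : b ∈ D) (hab : ¬ Commute a b) :
    ∃ k : ℕ, (a * b) ^ k * a * ((a * b) ^ k)⁻¹ = b :=
  Invol.exists_pow_conj_of_odd (h.sq ha) (h.sq hb) (h.orderOf_mul ha hb hab ▸ h.odd)

/-- two commuting members inverting the same element of order `p` are equal -/
theorem eq_of_inverts {x z t : G} (hx : x ∈ D) (hz : z ∈ D) (hxz : Commute x z) (ht : t ∈ closure D)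
    (hp : t ^ p = 1) (h1 : t ≠ 1) (ix : x * t * x = t⁻¹) (iz : z * t * z = t⁻¹) : x = z := by
  have c : Commute (x * z) t := by
    have : x * z * t * (x * z)⁻¹ = t := by
      rw [mul_inv_rev, h.inv hx, h.inv hz]
      calc x * z * t * (z * x) = x * (z * t * z) * x := by group
        _ = (x * t * x)⁻¹ := by rw [iz]; simp [h.inv hx, mul_assoc]
        _ = t := by rw [ix, inv_inv]
    exact mul_inv_eq_iff_eq_mul.1 this
  have e : t⁻¹ * z * t⁻¹⁻¹ = z * (t * t) := by
    rw [inv_inv, ← iz, mul_assoc _ z z, h.sq hz, mul_one, mul_assoc]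
  have hz' : z * (t * t) ∈ D := e ▸ h.conj_mem (inv_mem ht) hz
  have c2 : Commute (x * z) (t * t) := c.mul_right c
  have tt : (t * t) ^ p = 1 := by rw [(Commute.refl t).mul_pow, hp, one_mul]
  by_cases hc : Commute x (z * (t * t))
  · have h2 := h.sq_mul hx hz' hc
    rw [← mul_assoc x, ← pow_two, c2.mul_pow, pow_two, h.sq_mul hx hz hxz, one_mul, pow_two] at h2
    exact absurd (eq_one_of_odd h.odd hp (eq_one_of_odd h.odd tt h2)) h1
  · have h2 := h.pow x hx _ hz' hc
    rw [← mul_assoc x, c2.mul_pow, tt, mul_one] at h2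
    exact h.eq_of_pow hx hz hxz h.odd h2

theorem commute_of_commute_two {x z w : G} (hx : x ∈ D) (hz : z ∈ D) (hw : w ∈ D) (hxz : Commute x z) (hne : x ≠ z)
    (hc : Commute w (x * z)) : Commute w x := by
  by_contra hn
  have hx' := h.conj w hw x hx
  have hz' := h.conj w hw z hz
  have hxx : ¬ Commute x (w * x * w) := h.not_commute_conj hx hw fun hc => hn hc.symm
  have e : w * x * w * (w * z * w) = x * z := by
    calc w * x * w * (w * z * w) = w * x * (w * w) * z * w := by group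
      _ = w * (x * z) * w := by rw [h.sq hw]; group
      _ = x * z := conj_eq_of_commute (h.sq hw) hc
  have e' : x * (w * x * w) = z * (w * z * w) := by
    rw [← mul_left_inj (w * z * w), mul_assoc x, e, h.cancel hx, mul_assoc z, h.sq hz', mul_one]
  refine hne (h.eq_of_inverts hx hz hxz (mul_mem (subset_closure hx) (subset_closure hx')) (h.pow _ hx _ hx' hxx)
    (h.mul_ne_one hx hxx) ?_ ?_)
  · rw [h.cancel hx, mul_inv_rev, h.inv hx, h.inv hx']
  · rw [e', h.cancel hz, mul_inv_rev, h.inv hz, h.inv hz']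

theorem commute_of_commute_odd {a b v : G} (ha : a ∈ D) (hb : b ∈ D) (hv : v ∈ D) (hab : ¬ Commute a b)
    (hc : Commute v (a * b)) : Commute v a := by
  by_contra hn
  refine h.mul_ne_one ha hab (eq_one_of_odd h.odd (h.pow a ha b hb hab)
    (sq_eq_one_of_inverts h.odd (h.pow v hv a ha hn) ?_))
  calc v * a * (a * b) * (v * a)⁻¹ = v * (a * (a * b) * a⁻¹) * v⁻¹ := by group
    _ = v * (a * b)⁻¹ * v⁻¹ := by rw [Invol.conj_mul_eq_inv (h.sq ha) (h.sq hb)]
    _ = (a * b)⁻¹ := by rw [hc.inv_right.eq, mul_inv_cancel_right]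

theorem preimage : PT p {x : closure D | (x : G) ∈ D} where
  prime := h.prime
  ne_two := h.ne_two
  ord d hd := by rw [← orderOf_coe]; exact h.ord _ hd
  pow a ha b hb hn := Subtype.ext (h.pow _ ha _ hb fun hc => hn (Subtype.ext hc))
  conj a ha b hb := h.conj _ ha _ hb

end PT

end CfsgLib.PTrans
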