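import Mathlib
import Cfsg.Agent.Lib.PTrans.Basic
import Cfsg.Agent.Lib.ThreeTrans.ZInst
import Cfsg.Agent.Lib.InvChar.SylowBasic
import Cfsg.Agent.Lib.Core.Cores

/-!
# Normal `PT` sets on which commuting is transitive: `p`-local lemmas
-/

set_option autoImplicit false

namespace CfsgLib.PTrans

open Cfsg Subgroup CfsgLib.ThreeTrans

variable {G : Type*} [Group G] {D : Set G} {p : ℕ}

structure TI (p : ℕ) (D : Set G) : Prop extends PT p D where
  cj : ∀ g : G, ∀ d ∈ D, g * d * g⁻¹ ∈ D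
  tr : ∀ a ∈ D, ∀ b ∈ D, ∀ c ∈ D, Commute a b → Commute b c → Commute a c

theorem conj_mem_of_norm {R : Subgroup G} {a r : G} (ha : a ∈ normalizer (R : Set G)) (hr : r ∈ R) :
    a * r * a⁻¹ ∈ R := (mem_normalizer_iff.1 ha r).1 hr

theorem mul_conj_mem_of_norm {R : Subgroup G} {a r : G} (ha : a ∈ normalizer (R : Set G)) (h2 : a⁻¹ = a)
    (hr : r ∈ R) : a * (r * a * r⁻¹) ∈ R := by
  have := mul_mem (conj_mem_of_norm ha hr) (inv_mem hr)
  rwa [h2, mul_assoc, mul_assoc, ← mul_assoc r] at this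

theorem PT.eq_of_mem (h : PT p D) {R : Subgroup G} (hR : IsPGroup p R) {a b : G} (ha : a ∈ D) (hb : b ∈ D)
    (hab : Commute a b) (e : a * b ∈ R) : a = b := by
  obtain ⟨k, hk⟩ := hR ⟨_, e⟩
  exact h.eq_of_pow ha hb hab h.odd.pow (congrArg Subtype.val hk)

namespace TI
variable (h : TI p D)
include h

theorem not_cent {s s' a : G} (hs : s ∈ D) (hs' : s' ∈ D) (hn : ¬ Commute s s') (ha : a ∈ D) :
    ¬ Commute a (s * s') := fun hc => by
  have h1 := h.commute_of_commute_odd hs hs' ha hn hc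
  have h2 : Commute a s' := by simpa only [h.cancel hs] using h1.mul_right hc
  exact hn (h.tr s hs a ha s' hs' h1.symm h2)

theorem cent_of_two {R : Subgroup G} (hR : IsPGroup p R) {a c : G} (ha : a ∈ D) (hc : c ∈ D) (hac : Commute a c)
    (hne : a ≠ c) (na : a ∈ normalizer (R : Set G)) (nc : c ∈ normalizer (R : Set G)) {r : G} (hr : r ∈ R) :
    Commute a r := by
  by_contra hn
  have hy := h.cj r a ha
  have m1 := mul_conj_mem_of_norm na (h.inv ha) hr
  have hay : ¬ Commute a (r * a * r⁻¹) := fun hh => hn (by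
    have := h.toPT.eq_of_mem hR ha hy hh m1
    exact (eq_mul_inv_iff_mul_eq.1 this))
  have hcy : ¬ Commute (r * a * r⁻¹) c := fun hh => hay (h.tr a ha c hc _ hy hac hh.symm)
  obtain ⟨w, hw, e, hwy, k, rfl⟩ := h.exists_swap' hy (h.conj c hc _ hy) (h.not_commute_conj hy hc hcy)
  have e' := h.swap_unique hw hc hy hwy e
  have m2 := mul_conj_mem_of_norm na (h.inv ha) (conj_mem_of_norm nc hr)
  have e2 : c * r * c⁻¹ * a * (c * r * c⁻¹)⁻¹ = c * (r * a * r⁻¹) * c := by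
    have : c⁻¹ * a * c = a := by rw [h.inv hc, conj_eq_of_commute (h.sq hc) hac.symm]
    calc c * r * c⁻¹ * a * (c * r * c⁻¹)⁻¹ = c * (r * (c⁻¹ * a * c) * r⁻¹) * c⁻¹ := by group
      _ = _ := by rw [this, h.inv hc]
  rw [e2] at m2
  have m3 : r * a * r⁻¹ * (c * (r * a * r⁻¹) * c) ∈ R := by
    have := mul_mem (inv_mem m1) m2
    rwa [mul_inv_rev, h.inv ha, h.inv hy, mul_assoc _ a, h.cancel ha] at this
  refine hne (h.toPT.eq_of_mem hR ha hc hac ?_)
  rw [← e', ← mul_assoc]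
  exact mul_mem m1 (pow_mem m3 k)

theorem width {R : Subgroup G} (hR : IsPGroup p R) {s s' : G} (hs : s ∈ D) (hs' : s' ∈ D) (hn : ¬ Commute s s')
    (ht : s * s' ∈ R) {a c : G} (ha : a ∈ D) (hc : c ∈ D) (hac : Commute a c)
    (na : a ∈ normalizer (R : Set G)) (nc : c ∈ normalizer (R : Set G)) : a = c := by
  by_contra hne
  exact h.not_cent hs hs' hn ha (h.cent_of_two hR ha hc hac hne na nc ht)

theorem mul_mem_core [Finite G] {R : Subgroup G} (hR : IsPGroup p R) {s s' : G} (hs : s ∈ D) (hs' : s' ∈ D)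
    (hn : ¬ Commute s s') (ht : s * s' ∈ R) {a c : G} (ha : a ∈ D) (hc : c ∈ D)
    (na : a ∈ normalizer (R : Set G)) (nc : c ∈ normalizer (R : Set G)) :
    a * c ∈ (pCore p (normalizer (R : Set G))).map (normalizer (R : Set G)).subtype := by
  have key := mul_mem_pCore_of_zstar zstar h.prime h.ne_two (⟨a, na⟩ : normalizer (R : Set G))
    (by rw [← orderOf_coe]; exact h.ord a ha) (fun g => by
      have hd := h.cj g a ha
      by_cases hcm : Commute a (g * a * (g : G)⁻¹)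
      · refine ⟨0, Subtype.ext ?_⟩
        have := h.width hR hs hs' hn ht ha hd hcm na (mul_mem (mul_mem g.2 na) (inv_mem g.2))
        simp only [pow_zero, pow_one, Subgroup.coe_mul, InvMemClass.coe_inv, OneMemClass.coe_one]
        rw [← this, h.sq ha]
      · exact ⟨1, Subtype.ext (by simpa using h.pow a ha _ hd hcm)⟩)
    ⟨a, na⟩ (IsConj.refl _) ⟨c, nc⟩ (by
      by_cases hcm : Commute a c
      · obtain rfl := h.width hR hs hs' hn ht ha hc hcm na nc
        exact IsConj.refl _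
      · obtain ⟨k, hk⟩ := h.exists_conj ha hc hcm
        exact isConj_iff.2 ⟨⟨_, pow_mem (mul_mem na nc) k⟩, Subtype.ext hk⟩)
  exact ⟨_, key, rfl⟩

/-- a member `s` of `D` normalising `K` with `s s' ∈ K` normalises a Sylow `p`-subgroup of `K` containing `s s'` -/
theorem exists_sylow [Finite G] {K : Subgroup G} {s s' : G} (hs : s ∈ D) (hs' : s' ∈ D) (hn : ¬ Commute s s')
    (ht : s * s' ∈ K) (hK : s ∈ normalizer (K : Set G)) :
    ∃ R : Subgroup G, IsPGroup p R ∧ R ≤ K ∧ s * s' ∈ R ∧ s ∈ normalizer (R : Set G) ∧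
      ∀ P : Subgroup G, IsPGroup p P → P ≤ K → ∃ k ∈ K, ∀ x ∈ P, k * x * k⁻¹ ∈ R := by
  have := Fact.mk h.prime
  have nrm : ∀ {R : Subgroup G}, (∀ r ∈ R, s * r * s⁻¹ ∈ R) → s ∈ normalizer (R : Set G) := fun {R} hR =>
    mem_normalizer_iff.2 fun r => ⟨hR r, fun hr => by
      have := hR _ hr
      rwa [h.inv hs, mul_assoc s r, h.cancel hs, mul_assoc, h.sq hs, mul_one] at this⟩
  obtain ⟨R, ⟨hR, hRK, htR, hsR⟩, hmax⟩ := Set.exists_max_image
    {R : Subgroup G | IsPGroup p R ∧ R ≤ K ∧ s * s' ∈ R ∧ s ∈ normalizer (R : Set G)} (fun R => Nat.card R)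
    (Set.toFinite _) ⟨zpowers (s * s'), IsPGroup.of_card (n := 1) (by
        rw [Nat.card_zpowers, pow_one, h.orderOf_mul hs hs' hn]), zpowers_le.2 ht, mem_zpowers _, nrm (by
      rintro _ ⟨k, rfl⟩
      simp only [← conj_zpow, Invol.conj_mul_eq_inv (h.sq hs) (h.sq hs')]
      exact zpow_mem (inv_mem (mem_zpowers _)) k)⟩
  have mx : ∀ P : Subgroup G, IsPGroup p P → P ≤ K → R ≤ P → (∀ r ∈ P, s * r * s⁻¹ ∈ P) → P = R :=
    fun P hP hPK hRP hsP => (eq_of_le_of_card_ge hRP (hmax P ⟨hP, hPK, hRP htR, nrm hsP⟩)).symm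
  refine ⟨R, hR, hRK, htR, hsR, fun P hP hPK => ?_⟩
  obtain ⟨k, hk, R', hR', hR'K, hRR', hP'⟩ := InvChar.exists_conj_mem_common hP hPK hR hRK
  refine ⟨k, hk, ?_⟩
  by_cases e : R = R'
  · exact e ▸ hP'
  exfalso
  obtain ⟨g, hg, hgR, hgN⟩ := InvChar.exists_mem_normalizer_not_mem hR' hRR' e
  set N := normalizer (R : Set G)
  have hQ : (pCore p N).map N.subtype ⊓ K = R := by
    refine mx _ (((Core.isPGroup_pCore p N).map _).to_inf_left) inf_le_right (le_inf ?_ hRK) ?_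
    · intro r hr
      exact ⟨⟨r, le_normalizer hr⟩, Core.le_pCore (N := R.subgroupOf N) hR.comap_subtype hr, rfl⟩
    · rintro _ ⟨⟨r, hr, rfl⟩, hrK⟩
      exact ⟨⟨_, (inferInstance : (pCore p N).Normal).conj_mem r hr ⟨s, hsR⟩, rfl⟩, conj_mem_of_norm hK hrK⟩
  have : R' ⊓ N = R := by
    refine mx _ hR'.to_inf_left (inf_le_left.trans hR'K) (le_inf hRR' le_normalizer) fun r hr => ?_
    have h1 : s * (r * s * r⁻¹) ∈ R := hQ ▸ ⟨h.mul_mem_core hR hs hs' hn htR hs (h.cj r s hs) hsR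
      (mul_mem (mul_mem hr.2 hsR) (inv_mem hr.2)), mul_conj_mem_of_norm hK (h.inv hs) (hR'K hr.1)⟩
    have h2 := mul_mem (show _ ∈ R' ⊓ N from ⟨hRR' h1, le_normalizer h1⟩) hr
    rw [h.inv hs]
    rwa [mul_assoc, inv_mul_cancel_right, ← mul_assoc] at h2
  exact hgR (this ▸ ⟨hg, hgN⟩)

end TI

end CfsgLib.PTrans
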