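import Mathlib
import Cfsg.Agent.Lib.PTrans.Loc
import Cfsg.Agent.Lib.Frob.FPF
import Cfsg.Agent.Lib.Recog.Fixity

/-!
# Normal `PT` sets on which commuting is transitive: commuting members act alike on the blocks
-/

set_option autoImplicit false

namespace CfsgLib.PTrans

open Cfsg Subgroup CfsgLib.ThreeTrans MulAction

variable {G : Type*} [Group G] {D : Set G} {p : ℕ} {Ω : Type*} [MulAction G Ω] {β : G → Ω}

structure Blk (D : Set G) (β : G → Ω) : Prop where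
  surj : ∀ ω, ∃ a ∈ D, β a = ω
  eq_iff : ∀ a ∈ D, ∀ b ∈ D, β a = β b ↔ Commute a b
  smul : ∀ g : G, ∀ a ∈ D, g • β a = β (g * a * g⁻¹)

theorem commute_of_mem_zpowers [Fact p.Prime] {a t g : G} (ht : orderOf t = p) (hg : g ∈ zpowers t) (h1 : g ≠ 1)
    (hc : Commute a g) : Commute a t := by
  obtain ⟨k, hk⟩ := mem_zpowers_of_prime_card (G := zpowers t) (p := p) (by rw [Nat.card_zpowers, ht])
    (g := ⟨g, hg⟩) (g' := ⟨t, mem_zpowers t⟩) fun e => h1 (congrArg Subtype.val e)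
  have : g ^ k = t := congrArg Subtype.val hk
  exact this ▸ hc.zpow_right k

namespace TI
variable (h : TI p D) (b : Blk D β)
include h b

theorem smul' {a c : G} (ha : a ∈ D) (hc : c ∈ D) : a • β c = β (a * c * a) := by rw [b.smul a c hc, h.inv ha]

omit b in
theorem smul_smul {a : G} (ha : a ∈ D) (ω : Ω) : a • a • ω = ω := by rw [← mul_smul, h.sq ha, one_smul]

theorem fix_iff {a : G} (ha : a ∈ D) (ω : Ω) : a • ω = ω ↔ β a = ω := by
  obtain ⟨y, hy, rfl⟩ := b.surj ω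
  rw [h.smul' b ha hy, b.eq_iff _ (h.conj a ha y hy) y hy, b.eq_iff a ha y hy]
  refine ⟨fun hc => ?_, fun hc => by rw [conj_eq_of_commute (h.sq ha) hc]⟩
  by_contra hn
  exact h.not_commute_conj hy ha (fun e => hn e.symm) hc.symm

theorem exists_sw {y y' : G} (hy : y ∈ D) (hy' : y' ∈ D) (hn : β y ≠ β y') :
    ∃ s ∈ D, s * y * s = y' ∧ s • β y = β y' := by
  obtain ⟨s, hs, e, -⟩ := h.exists_swap hy hy' fun hc => hn ((b.eq_iff y hy y' hy').2 hc)
  exact ⟨s, hs, e, by rw [h.smul' b hs hy, e]⟩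

theorem exists_noncomm [Finite G] {s s' : G} (hs : s ∈ D) (hs' : s' ∈ D) (hn : ¬ Commute s s') {ω ω' : Ω}
    (hne : ω ≠ ω') (f1 : (s * s') • ω = ω) (f2 : (s * s') • ω' = ω') :
    ∃ c ∈ D, ∃ c' ∈ D, ¬ Commute c c' ∧ c • ω = ω' ∧ c' • ω = ω' := by
  have := Fact.mk h.prime
  by_contra! H
  have hE : IsPGroup 2 (closure {c | c ∈ D ∧ c • ω = ω'}) :=
    isPGroup_closure_of_commute (fun a ha => h.sq ha.1) fun a ha c hc => by
      by_contra hh; exact H a ha.1 c hc.1 hh ha.2 hc.2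
  set E := closure {c | c ∈ D ∧ c • ω = ω'}
  obtain ⟨y, hy, rfl⟩ := b.surj ω
  set E' : Subgroup (ConjAct G) := E.map ConjAct.toConjAct.toMonoidHom
  obtain ⟨n, hO⟩ := IsPGroup.card_orbit (G := E') (hE.map _) y
  have mem : ∀ a, a ∈ orbit E' y ↔ ∃ e ∈ E, e * y * e⁻¹ = a := fun a =>
    ⟨by rintro ⟨⟨_, e, he, rfl⟩, rfl⟩; exact ⟨e, he, rfl⟩, fun ⟨e, he, h1⟩ => ⟨⟨_, e, he, rfl⟩, h1⟩⟩
  have pres : ∀ e ∈ E, (e • β y = β y ∧ e • ω' = ω') ∨ (e • β y = ω' ∧ e • ω' = β y) := fun e he => by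
    induction he using closure_induction with
    | mem x hx => exact Or.inr ⟨hx.2, by rw [← hx.2, h.smul_smul hx.1]⟩
    | one => simp
    | mul x z _ _ hx hz => rcases hx with ⟨h1, h2⟩ | ⟨h1, h2⟩ <;> rcases hz with ⟨h3, h4⟩ | ⟨h3, h4⟩ <;>
        simp [mul_smul, h1, h2, h3, h4]
    | inv x _ hx => rcases hx with ⟨h1, h2⟩ | ⟨h1, h2⟩ <;> simp [inv_smul_eq_iff, h1, h2]
  have eO : orbit E' y = {a | a ∈ D ∧ (β a = β y ∨ β a = ω')} := by
    ext a
    rw [mem]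
    constructor
    · rintro ⟨e, he, rfl⟩
      refine ⟨h.cj e y hy, ?_⟩
      rw [← b.smul e y hy]
      exact (pres e he).imp And.left And.left
    · rintro ⟨ha, e | e⟩
      · obtain ⟨y', hy', rfl⟩ := b.surj ω'
        obtain ⟨c, hc, e1, e2⟩ := h.exists_sw b hy hy' hne
        obtain ⟨c', hc', e1', e2'⟩ := h.exists_sw b hy' ha (by rw [e]; exact hne.symm)
        refine ⟨c' * c, mul_mem (subset_closure ⟨hc', by rw [← e, ← e2', h.smul_smul hc']⟩)
          (subset_closure ⟨hc, e2⟩), ?_⟩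
        rw [mul_inv_rev, h.inv hc, h.inv hc', ← e1', ← e1]; group
      · obtain ⟨c, hc, e1, e2⟩ := h.exists_sw b hy ha (by rw [e]; exact hne)
        exact ⟨c, subset_closure ⟨hc, e2.trans e⟩, by rw [h.inv hc, e1]⟩
  have ho := h.orderOf_mul hs hs' hn
  have hd := Frob.card_dvd_ncard_of_free_conj (H := zpowers (s * s'))
    (S := {a | a ∈ D ∧ (β a = β y ∨ β a = ω')}) (fun g hg a ha => ⟨h.cj g a ha.1, by
      rw [← b.smul g a ha.1]
      have g1 : g • β y = β y := (zpowers_le (H := stabilizer G (β y))).2 f1 hg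
      have g2 : g • ω' = ω' := (zpowers_le (H := stabilizer G ω')).2 f2 hg
      rcases ha.2 with e | e <;> simp [e, g1, g2]⟩) fun g hg a ha hc => by
      by_contra h1
      exact h.not_cent hs hs' hn ha.1 (commute_of_mem_zpowers ho hg h1 hc)
  rw [Nat.card_zpowers, ho, ← eO, ← Nat.card_coe_set_eq, hO] at hd
  exact h.ne_two ((Nat.prime_dvd_prime_iff_eq h.prime Nat.prime_two).1 (h.prime.dvd_of_dvd_pow hd))

theorem not_dvd [Finite G] [Finite Ω] {s s' : G} (hs : s ∈ D) (hs' : s' ∈ D) (hn : ¬ Commute s s') {ω : Ω}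
    (f : (s * s') • ω = ω) : ¬ p ∣ Nat.card Ω := by
  have := Fact.mk h.prime
  have f' : s' • ω = s • ω := by rw [← h.smul_smul hs (s' • ω), ← mul_smul s s', f]
  obtain ⟨R, ⟨hR, ⟨s, hs, s', hs', hn, ht⟩, ω₁, ω₂, hne, hf⟩, hmax⟩ := Set.exists_max_image
    {R : Subgroup G | IsPGroup p R ∧ (∃ s ∈ D, ∃ s' ∈ D, ¬ Commute s s' ∧ s * s' ∈ R) ∧
      ∃ ω₁ ω₂ : Ω, ω₁ ≠ ω₂ ∧ R ≤ stabilizer G ω₁ ⊓ stabilizer G ω₂} (fun R => Nat.card R)
    (Set.toFinite _) ⟨zpowers (s * s'), IsPGroup.of_card (n := 1) (by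
        rw [Nat.card_zpowers, pow_one, h.orderOf_mul hs hs' hn]), ⟨s, hs, s', hs', hn, mem_zpowers _⟩,
      ω, s • ω, fun e => hn ((b.eq_iff s hs s' hs').1 (((h.fix_iff b hs ω).1 e.symm).trans
        ((h.fix_iff b hs' ω).1 (f'.trans e.symm)).symm)), zpowers_le.2 ⟨f, mem_stabilizer_iff.2 (by
          rw [mul_smul, ← f', h.smul_smul hs', f'])⟩⟩
  clear f f'
  set N := normalizer (R : Set G)
  set F := fixedPoints R Ω
  have memF : ∀ ω, ω ∈ F ↔ ∀ r ∈ R, r • ω = ω := fun ω => ⟨fun H r hr => H ⟨r, hr⟩, fun H r => H r r.2⟩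
  have NF : ∀ g ∈ N, ∀ ω ∈ F, g • ω ∈ F := fun g hg ω hω => (memF _).2 fun r hr => by
    have := (memF _).1 hω _ (conj_mem_of_norm (inv_mem hg) hr)
    rwa [inv_inv, mul_smul, mul_smul, inv_smul_eq_iff] at this
  have sw : ∀ ω ∈ F, ∀ ω' ∈ F, ω ≠ ω' → ∃ c ∈ D, c ∈ N ∧ c • ω = ω' := fun ω hω ω' hω' hne => by
    obtain ⟨c, hc, c', hc', hcn, e, e'⟩ := h.exists_noncomm b hs hs' hn hne ((memF _).1 hω _ ht) ((memF _).1 hω' _ ht)
    have e2 : c • ω' = ω := by rw [← e, h.smul_smul hc]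
    have e2' : c' • ω' = ω := by rw [← e', h.smul_smul hc']
    have nK : ∀ g ∈ stabilizer G ω ⊓ stabilizer G ω', c * g * c⁻¹ ∈ stabilizer G ω ⊓ stabilizer G ω' :=
      fun g hg => ⟨mem_stabilizer_iff.2 (by rw [h.inv hc, mul_smul, mul_smul, e, hg.2, e2]),
        mem_stabilizer_iff.2 (by rw [h.inv hc, mul_smul, mul_smul, e2, hg.1, e])⟩
    obtain ⟨R', hR', hR'K, ht', hcR', hS⟩ := h.exists_sylow (K := stabilizer G ω ⊓ stabilizer G ω') hc hc' hcn
      ⟨mem_stabilizer_iff.2 (by rw [mul_smul, e', e2]), mem_stabilizer_iff.2 (by rw [mul_smul, e2', e])⟩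
      (mem_normalizer_iff.2 fun g => ⟨nK g, fun hg => by
        have := nK _ hg
        rwa [h.inv hc, mul_assoc c g, h.cancel hc, mul_assoc, h.sq hc, mul_one] at this⟩)
    obtain ⟨k, hk, hkR⟩ := hS R hR fun r hr => ⟨(memF _).1 hω r hr, (memF _).1 hω' r hr⟩
    have e3 : R.map (MulAut.conj k).toMonoidHom = R' := eq_of_le_of_card_ge (by rintro _ ⟨r, hr, rfl⟩; exact hkR r hr)
      (by rw [card_map_of_injective (MulAut.conj k).injective]
          exact hmax R' ⟨hR', ⟨c, hc, c', hc', hcn, ht'⟩, ω, ω', hne, hR'K⟩)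
    have memR : ∀ r, k * r * k⁻¹ ∈ R' ↔ r ∈ R := fun r => by
      rw [← e3]; exact mem_map_iff_mem (f := (MulAut.conj k).toMonoidHom) (MulAut.conj k).injective
    refine ⟨k⁻¹ * c * k⁻¹⁻¹, h.cj _ c hc, mem_normalizer_iff.2 fun r => ?_, ?_⟩
    · rw [← memR, ← memR (_ * r * _), mem_normalizer_iff.1 hcR']
      congr! 1; group
    · rw [inv_inv, mul_smul, mul_smul, hk.1, e, inv_smul_eq_iff, hk.2]
  have h1 : ω₁ ∈ F := (memF _).2 fun r hr => (hf hr).1
  have h2 : ω₂ ∈ F := (memF _).2 fun r hr => (hf hr).2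
  obtain ⟨c, hc, hcN, e⟩ := sw ω₁ h1 ω₂ h2 hne
  have ev : 2 ∣ F.ncard := by
    have := Recog.card_dvd_ncard_of_semiregular (zpowers c) F (Set.toFinite _)
      (fun g hg => NF g (zpowers_le.2 hcN hg)) fun g hg ω hω e => by
        by_contra g1
        have hg' : c ∈ zpowers g := by
          have := Fact.mk Nat.prime_two
          obtain ⟨k, hk⟩ := mem_zpowers_of_prime_card (G := zpowers c) (p := 2) (by rw [Nat.card_zpowers, h.ord c hc])
            (g := ⟨g, hg⟩) (g' := ⟨c, mem_zpowers c⟩) fun e => g1 (congrArg Subtype.val e)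
          exact ⟨k, congrArg Subtype.val hk⟩
        have e1 := (h.fix_iff b hc ω).1 ((zpowers_le (H := stabilizer G ω)).2 e hg')
        have e2 := (memF _).1 hω _ ht
        rw [← e1, b.smul _ c hc, b.eq_iff _ (h.cj _ c hc) c hc] at e2
        exact h.not_cent hs hs' hn hc (eq_mul_inv_iff_mul_eq.1
          (h.toPT.eq_of_mem hR hc (h.cj _ c hc) e2.symm (mul_conj_mem_of_norm hcN (h.inv hc) ht)))
    rwa [Nat.card_zpowers, h.ord c hc] at this
  set Q := (pCore p N).map N.subtype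
  obtain ⟨n, hO⟩ := IsPGroup.card_orbit (G := Q) ((Core.isPGroup_pCore p N).map _) ω₂
  rw [Nat.card_coe_set_eq] at hO
  have sub : orbit Q ω₂ ⊆ F := by
    rintro _ ⟨⟨_, g, -, rfl⟩, rfl⟩
    exact NF g g.2 _ h2
  have sup : ∀ ω ∈ F, ω ≠ ω₁ → ω ∈ orbit Q ω₂ := fun ω hω hne => by
    obtain ⟨c', hc', hcN', e'⟩ := sw ω₁ h1 ω hω hne.symm
    exact ⟨⟨_, h.mul_mem_core hR hs hs' hn ht hc' hc hcN' hcN⟩, by
      change (c' * c) • ω₂ = ω
      rw [mul_smul, ← e, h.smul_smul hc, e']⟩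
  have hF : F.ncard = p ^ n + 1 := by
    by_cases m : ω₁ ∈ orbit Q ω₂
    · have : orbit Q ω₂ = F := sub.antisymm fun ω hω => by
        by_cases e : ω = ω₁
        · exact e ▸ m
        · exact sup ω hω e
      rw [← this, hO] at ev
      exact absurd (even_iff_two_dvd.2 ev) (Nat.not_even_iff_odd.2 h.odd.pow)
    · have : insert ω₁ (orbit Q ω₂) = F := (Set.insert_subset h1 sub).antisymm fun ω hω => by
        by_cases e : ω = ω₁
        · exact Or.inl e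
        · exact Or.inr (sup ω hω e)
      rw [← this, Set.ncard_insert_of_notMem m, hO]
  intro hd
  have hm := hR.card_modEq_card_fixedPoints Ω
  rw [Nat.card_coe_set_eq, hF] at hm
  have hd' := (hm.dvd_iff dvd_rfl).1 hd
  rcases n with _ | n
  · exact h.ne_two ((Nat.prime_dvd_prime_iff_eq h.prime Nat.prime_two).1 hd')
  · exact h.prime.one_lt.ne' (Nat.dvd_one.1 ((Nat.dvd_add_right (dvd_pow_self p n.succ_ne_zero)).1 hd'))

theorem no_fix [Finite G] [Finite Ω] {x y₀ : G} (hx : x ∈ D) (hy₀ : y₀ ∈ D) (hn : ¬ Commute x y₀) (ω : Ω) :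
    (x * y₀) • ω ≠ ω := fun f => by
  have := Fact.mk h.prime
  have nd := h.not_dvd b hx hy₀ hn f
  have H : ∀ y : G, ∃ ω : Ω, y ∈ D → ¬ Commute x y → y • ω = x • ω := fun y => by
    by_cases hy : y ∈ D ∧ ¬ Commute x y
    · obtain ⟨ω, hω⟩ := IsPGroup.nonempty_fixed_point_of_prime_not_dvd_card (G := zpowers (x * y))
        (IsPGroup.of_card (n := 1) (by rw [Nat.card_zpowers, pow_one, h.orderOf_mul hx hy.1 hy.2])) Ω nd
      have : (x * y) • ω = ω := hω ⟨_, mem_zpowers _⟩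
      exact ⟨ω, fun _ _ => by rw [← h.smul_smul hx (y • ω), ← mul_smul x y, this]⟩
    · exact ⟨ω, fun h1 h2 => absurd ⟨h1, h2⟩ hy⟩
  choose o ho using H
  choose c hc hc' using b.surj
  have ny : ∀ y ∈ D, ¬ Commute x y → y • o y ≠ o y := fun y hy hn e => hn ((b.eq_iff x hx y hy).1
    (((h.fix_iff b hx _).1 ((ho y hy hn).symm.trans e)).trans ((h.fix_iff b hy _).1 e).symm))
  have nc : ∀ y ∈ D, ¬ Commute x y → ¬ Commute y (c (o y)) := fun y hy hn e =>
    ny y hy hn ((h.fix_iff b hy _).2 (((b.eq_iff y hy _ (hc _)).2 e).trans (hc' _)))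
  have eb : ∀ y ∈ D, ¬ Commute x y → β (y * c (o y) * y) = x • o y := fun y hy hn => by
    rw [← h.smul' b hy (hc _), hc', ho y hy hn]
  have hm : Set.MapsTo (fun y => y * c (o y) * y) {y | y ∈ D ∧ ¬ Commute x y} {y | y ∈ D ∧ ¬ Commute x y} :=
    fun y hy => ⟨h.conj y hy.1 _ (hc _), fun e => by
      have e1 := ((b.eq_iff x hx _ (h.conj y hy.1 _ (hc _))).2 e).trans (eb y hy.1 hy.2)
      have e2 : β x = o y := by rw [← h.smul_smul hx (o y), ← e1, (h.fix_iff b hx _).2 rfl]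
      exact ny y hy.1 hy.2 ((ho y hy.1 hy.2).trans ((h.fix_iff b hx _).2 e2))⟩
  have hi : Set.InjOn (fun y => y * c (o y) * y) {y | y ∈ D ∧ ¬ Commute x y} := fun y hy y' hy' e => by
    have e0 : y * c (o y) * y = y' * c (o y') * y' := e
    have e1 : o y = o y' := MulAction.injective x (by
      change x • o y = x • o y'
      rw [← eb y hy.1 hy.2, ← eb y' hy'.1 hy'.2, e0])
    exact h.swap_unique hy.1 hy'.1 (hc _) (nc y hy.1 hy.2) (by rw [e0, e1])
  have hxc : ¬ Commute x (c (β y₀)) := fun e =>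
    hn ((b.eq_iff x hx y₀ hy₀).1 (((b.eq_iff x hx _ (hc _)).2 e).trans (hc' _)))
  obtain ⟨y, hy, e⟩ := (((Set.toFinite _).injOn_iff_bijOn_of_mapsTo hm).1 hi).surjOn
    (show x * c (β y₀) * x ∈ {y | y ∈ D ∧ ¬ Commute x y} from ⟨h.conj x hx _ (hc _), fun e => hxc (by
      have := (commute_conj_left_iff (h.sq hx) _ _).1 e.symm
      rw [h.sq hx, one_mul] at this
      exact this.symm)⟩)
  have e0 : y * c (o y) * y = x * c (β y₀) * x := e
  have e1 : o y = β y₀ := MulAction.injective x (by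
    change x • o y = x • β y₀
    rw [← eb y hy.1 hy.2, e0, ← h.smul' b hx (hc _), hc'])
  exact hy.2 (h.swap_unique hy.1 hx (hc _) (nc y hy.1 hy.2) (by rw [e0, e1]) ▸ Commute.refl y)

theorem main' [Finite G] [Finite Ω] {x z y : G} (hx : x ∈ D) (hz : z ∈ D) (hy : y ∈ D) (hxz : Commute x z)
    (hxy : ¬ Commute x y) : Commute (x * y * x) (z * y * z) := by
  have hne : β y ≠ x • β y := fun e => hxy ((b.eq_iff x hx y hy).1 ((h.fix_iff b hx _).1 e.symm))
  have hne' : β x ≠ β (x * y * x) := fun e => h.not_commute_conj hx hy hxy (by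
    have := (commute_conj_left_iff (h.sq hx) _ _).1 ((b.eq_iff x hx _ (h.conj x hx y hy)).1 e).symm
    rw [h.sq hx, one_mul] at this
    exact absurd this.symm hxy)
  obtain ⟨g, hg, -, eg⟩ := h.exists_sw b hx (h.conj x hx y hy) hne'
  rw [← h.smul' b hx hy] at eg
  have sub : {s | s ∈ D ∧ s • β y = x • β y} ⊆ {s | s ∈ D ∧ β s = β x} := fun s hs => ⟨hs.1, by
    by_contra hh
    exact h.no_fix b hx hs.1 (fun e => hh ((b.eq_iff x hx s hs.1).2 e).symm) (β y)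
      (by rw [mul_smul, hs.2, h.smul_smul hx])⟩
  have l1 : {s | s ∈ D ∧ β s = β x}.ncard ≤ {s | s ∈ D ∧ β s = x • β y}.ncard :=
    Set.ncard_le_ncard_of_injOn (fun a => g * a * g⁻¹)
      (fun a ha => ⟨h.cj g a ha.1, by rw [← b.smul g a ha.1, ha.2, eg]⟩) fun a _ a' _ e => by simpa using e
  have l2 : {s | s ∈ D ∧ β s = x • β y}.ncard ≤ {s | s ∈ D ∧ s • β y = x • β y}.ncard :=
    (Set.ncard_le_ncard (t := (fun s => s * y * s) '' {s | s ∈ D ∧ s • β y = x • β y}) fun a ha => by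
      obtain ⟨s, hs, e1, e2⟩ := h.exists_sw b hy ha.1 (by rw [ha.2]; exact hne)
      exact ⟨s, ⟨hs, e2.trans ha.2⟩, e1⟩).trans (Set.ncard_image_le (Set.toFinite _))
  have : z ∈ {s | s ∈ D ∧ s • β y = x • β y} :=
    Set.eq_of_subset_of_ncard_le sub (l1.trans l2) ▸ ⟨hz, ((b.eq_iff x hx z hz).2 hxz).symm⟩
  rw [← b.eq_iff _ (h.conj x hx y hy) _ (h.conj z hz y hy), ← h.smul' b hx hy, ← h.smul' b hz hy, this.2]

omit b in
theorem main [Finite G] {x z y : G} (hx : x ∈ D) (hz : z ∈ D) (hy : y ∈ D) (hxz : Commute x z)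
    (hxy : ¬ Commute x y) : Commute (x * y * x) (z * y * z) := by
  classical
  let B : G → Set G := fun a => {d | d ∈ D ∧ Commute a d}
  have cjB : ∀ g : G, ∀ a, (fun v => g⁻¹ * v * g) ⁻¹' B a = B (g * a * g⁻¹) := fun g a => by
    ext v
    refine and_congr ⟨fun hv => ?_, fun hv => ?_⟩ (commute_conj_left_iff' g a v).symm
    · simpa [mul_assoc] using h.cj g _ hv
    · simpa using h.cj g⁻¹ _ hv
  let _ : MulAction G {S : Set G // ∃ a ∈ D, S = B a} :=
    { smul := fun g S => ⟨(fun v => g⁻¹ * v * g) ⁻¹' S.1, by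
        obtain ⟨a, ha, e⟩ := S.2
        exact ⟨_, h.cj g a ha, by rw [e, cjB]⟩⟩
      one_smul := fun S => Subtype.ext (by ext v; change 1⁻¹ * v * 1 ∈ S.1 ↔ _; simp)
      mul_smul := fun g g' S => Subtype.ext (by
        ext v; change (g * g')⁻¹ * v * (g * g') ∈ S.1 ↔ g'⁻¹ * (g⁻¹ * v * g) * g' ∈ S.1; simp [mul_assoc]) }
  refine h.main' (β := fun a => if ha : a ∈ D then (⟨B a, a, ha, rfl⟩ : {S : Set G // ∃ a ∈ D, S = B a})
    else ⟨B x, x, hx, rfl⟩) ⟨?_, ?_, ?_⟩ hx hz hy hxz hxy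
  · rintro ⟨_, a, ha, rfl⟩
    exact ⟨a, ha, dif_pos ha⟩
  · intro a ha c hc
    simp only [dif_pos ha, dif_pos hc, Subtype.mk.injEq]
    refine ⟨fun e => ?_, fun e => Set.ext fun v => and_congr_right fun hv =>
      ⟨h.tr c hc a ha v hv e.symm, h.tr a ha c hc v hv e⟩⟩
    exact (show c ∈ B a from e ▸ ⟨hc, Commute.refl c⟩).2
  · intro g a ha
    simp only [dif_pos ha, dif_pos (h.cj g a ha)]
    exact Subtype.ext (cjB g a)

end TI

end CfsgLib.PTrans
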