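import Mathlib
import Cfsg.Agent.Lib.PTrans.TI

/-!
# The triangle property of finite `PT` sets, and the absence of induced paths of length three for `p ≠ 3`
-/

set_option autoImplicit false

namespace CfsgLib.PTrans

open Cfsg Subgroup CfsgLib.ThreeTrans

variable {G : Type*} [Group G] {D : Set G} {p : ℕ}

theorem PT.tri_of_trans [Finite G] (h : PT p D)
    (tr : ∀ a ∈ D, ∀ b ∈ D, ∀ c ∈ D, Commute a b → Commute b c → Commute a c)
    {x z y : G} (hx : x ∈ D) (hz : z ∈ D) (hy : y ∈ D) (hxz : Commute x z)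
    (hxy : ¬ Commute x y) : Commute (x * y * x) (z * y * z) := by
  have c : ∀ {a b : closure D}, Commute a b ↔ Commute (a : G) b := ⟨fun e => congrArg Subtype.val e, fun e => Subtype.ext e⟩
  have h' : TI p {x : closure D | (x : G) ∈ D} :=
    ⟨h.preimage, fun g d hd => h.conj_mem g.2 hd, fun a ha b hb d hd h1 h2 => c.2 (tr _ ha _ hb _ hd (c.1 h1) (c.1 h2))⟩
  exact c.1 (h'.main (x := ⟨x, subset_closure hx⟩) (z := ⟨z, subset_closure hz⟩) (y := ⟨y, subset_closure hy⟩)
    hx hz hy (c.2 hxz) fun e => hxy (c.1 e))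

theorem PT.tri [Finite G] (h : PT p D) {x z y : G} (hx : x ∈ D) (hz : z ∈ D) (hy : y ∈ D) (hxz : Commute x z)
    (hxy : ¬ Commute x y) (hzy : ¬ Commute z y) : Commute (x * y * x) (z * y * z) := by
  induction' hn : D.ncard using Nat.strong_induction_on with n ih generalizing D x z y
  subst hn
  have IH : ∀ E ⊆ D, PT p E → E ≠ D → ∀ x ∈ E, ∀ z ∈ E, ∀ y ∈ E, Commute x z → ¬ Commute x y → ¬ Commute z y →
      Commute (x * y * x) (z * y * z) := fun E hE hP hne x hx z hz y hy h1 h2 h3 =>
    ih _ (Set.ncard_lt_ncard (hE.ssubset_of_ne hne) (Set.toFinite _)) hP hx hz hy h1 h2 h3 rfl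
  by_contra hT
  have hne : x ≠ z := fun e => hT (e ▸ Commute.refl _)
  have cv : ∀ v, Commute (x * v * x) (z * v * z) ↔ Commute v (x * z * v * (x * z)) := fun v => by
    rw [commute_conj_left_iff (h.sq hx)]
    congr! 1
    rw [mul_assoc x z, mul_assoc x, mul_assoc x, hxz.eq]; simp only [mul_assoc]
  have u2 := h.sq_mul hx hz hxz
  have uD : ∀ v ∈ D, x * z * v * (x * z) ∈ D := fun v hv => by
    have := h.conj_mem (mul_mem (subset_closure hx) (subset_closure hz)) hv
    rwa [inv_eq_of_mul_eq_one_right u2] at this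
  obtain ⟨w, hw, e, hwy⟩ := h.exists_swap hy (uD y hy) fun hc => hT ((cv y).2 hc)
  have hwu : Commute w (x * z) := (commute_of_conj_eq u2 (h.swap_unique hw (uD w hw) hy hwy (by
    calc w * y * w = x * z * (w * (w * y * w) * w) * (x * z) := by rw [conj_conj (h.sq hw), e]
      _ = _ := by rw [e]; simp only [mul_assoc])).symm).symm
  have hwx : Commute w x := h.commute_of_commute_two hx hz hw hxz hne hwu
  have hwz : Commute w z := by simpa only [h.cancel hx] using hwx.mul_right hwu
  have ey : Commute (x * z * w) y := by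
    have : x * z * w * y * (x * z * w)⁻¹ = y := by
      rw [mul_inv_rev, inv_eq_of_mul_eq_one_right u2, h.inv hw]
      calc x * z * w * y * (w * (x * z)) = x * z * (w * y * w) * (x * z) := by simp only [mul_assoc]
        _ = y := by rw [e, conj_conj u2]
    exact mul_inv_eq_iff_eq_mul.1 this
  have ex : Commute (x * z * w) x := ((Commute.refl x).mul_left hxz.symm).mul_left hwx
  have ez : Commute (x * z * w) z := (hxz.mul_left (Commute.refl z)).mul_left hwz
  have eD : ∀ d ∈ D, Commute (x * z * w) d := by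
    by_contra hh
    refine hT (IH _ (fun _ hd => hd.1) (h.cent (x * z * w)) (fun e => hh fun d hd => ?_) x ⟨hx, ex⟩ z ⟨hz, ez⟩
      y ⟨hy, ey⟩ hxz hxy hzy)
    rw [← e] at hd; exact hd.2
  have cl : ∀ d ∈ D, ∃ g ∈ closure D, g * x * g⁻¹ = d := by
    by_contra hh
    obtain ⟨k, hk⟩ := h.exists_conj hx hy hxy
    obtain ⟨l, hl⟩ := h.exists_conj hy hz fun e => hzy e.symm
    have m : ∀ {a b : G} (k : ℕ), a ∈ D → b ∈ D → (a * b) ^ k ∈ closure D := fun k ha hb =>
      pow_mem (mul_mem (subset_closure ha) (subset_closure hb)) k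
    have sub : {d | ∃ g ∈ closure D, g * x * g⁻¹ = d} ⊆ D := by rintro _ ⟨g, hg, rfl⟩; exact h.conj_mem hg hx
    refine hT (IH _ sub (h.sub sub fun a ha b ⟨g, hg, hb⟩ => ⟨a * g, mul_mem (subset_closure (sub ha)) hg, by
      rw [← hb, mul_inv_rev, h.inv (sub ha)]; simp only [mul_assoc]⟩) (fun e => hh fun d hd => ?_)
      x ⟨1, one_mem _, by simp⟩ z ⟨_, mul_mem (m l hy hz) (m k hx hy), by
        generalize (x * y) ^ k = g at hk ⊢
        generalize (y * z) ^ l = g' at hl ⊢
        rw [← hl, ← hk]; group⟩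
      y ⟨_, m k hx hy, hk⟩ hxz hxy hzy)
    rw [← e] at hd; exact hd
  have hzw : z ≠ w := fun e => hxy (by simpa only [← e, mul_assoc, h.sq hz, mul_one] using ey)
  have hxw : x ≠ w := fun e => hzy (by simpa only [← e, conj_eq_of_commute (h.sq hx) hxz] using ey)
  have p1 : ∀ v ∈ D, Commute x v → Commute z v := fun v hv hc =>
    (h.commute_of_commute_two hz hw hv hwz.symm hzw (by
      simpa only [mul_assoc, h.cancel hx] using hc.symm.mul_right (eD v hv).symm)).symm
  have p2 : ∀ v ∈ D, Commute z v → Commute x v := fun v hv hc =>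
    (h.commute_of_commute_two hx hw hv hwx.symm hxw (by
      have := hc.symm.mul_right (eD v hv).symm
      rwa [hxz.eq, mul_assoc, h.cancel hz] at this)).symm
  have p3 : ∀ v ∈ D, ¬ Commute x v → ¬ Commute (x * v * x) (z * v * z) := fun v hv hc => by
    have hwv : ¬ Commute v w := fun hh => hc (h.commute_of_commute_two hx hz hv hxz hne (by
      simpa only [mul_assoc, h.sq hw, mul_one] using (eD v hv).symm.mul_right hh)).symm
    have : x * z * v * (x * z) = w * v * w := by
      have e1 := (eD v hv).eq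
      generalize x * z = u at e1 u2 hwu ⊢
      calc u * v * u = w * (w * u * v) * u := by rw [mul_assoc w u, h.cancel hw]
        _ = w * v * w := by rw [hwu.eq, e1, ← hwu.eq]; simp only [mul_assoc, u2, mul_one]
    rw [cv, this]
    exact h.not_commute_conj hv hw hwv
  have tr0 : ∀ d ∈ D, ∀ v ∈ D, Commute x d → Commute d v → Commute x v := fun d hd v hv h1 h2 => by
    by_contra hc
    refine p3 v hv hc (IH _ (fun _ hd => hd.1) (h.cent d) (fun e => hxy ?_) x ⟨hx, h1.symm⟩ z ⟨hz, (p1 d hd h1).symm⟩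
      v ⟨hv, h2⟩ hxz hc fun hh => hc (p2 v hv hh))
    obtain ⟨g, hg, rfl⟩ := cl d hd
    have := h.conj_mem hg hy
    rw [← e] at this
    exact (commute_conj_iff g x y).1 this.2
  refine hT (h.tri_of_trans (fun a ha d hd v hv h1 h2 => ?_) hx hz hy hxz hxy)
  obtain ⟨g, hg, rfl⟩ := cl a ha
  rw [commute_conj_left_iff'] at h1 ⊢
  refine tr0 _ (by simpa using h.conj_mem (inv_mem hg) hd) _ (by simpa using h.conj_mem (inv_mem hg) hv) h1 ?_
  simpa using (commute_conj_iff g⁻¹ d v).2 h2

theorem PT.no_path [Finite G] (h : PT p D) (h3 : p ≠ 3) {a b c d : G} (ha : a ∈ D) (hb : b ∈ D) (hc : c ∈ D)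
    (hd : d ∈ D) (hab : ¬ Commute a b) (hbc : ¬ Commute b c) (hcd : ¬ Commute c d) (hac : Commute a c)
    (had : Commute a d) (hbd : Commute b d) : False := by
  have hz := h.conj c hc d hd
  have hdc : ¬ Commute d c := fun e => hcd e.symm
  have t1 := h.tri ha hc hb hac hab fun e => hbc e.symm
  have t2 := h.tri ha hz hb ((hac.mul_right had).mul_right hac) hab fun e =>
    hbc (h.commute_of_conj hd hc hdc hbd e.symm)
  have hw := h.conj c hc _ (h.conj d hd c hc)
  have c2 := h.cancel hc
  have d2 := h.cancel hd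
  have bd : ∀ v, d * (b * (d * v)) = b * v := fun v => by rw [← mul_assoc d, ← hbd.eq, mul_assoc, d2]
  have e : c * (d * c * d) * c * (c * b * c) * (c * (d * c * d) * c) = c * d * c * b * (c * d * c) := by
    simp only [mul_assoc, c2, bd]
  have hn : ¬ Commute (c * b * c) (c * (d * c * d) * c) := fun hh => by
    rw [commute_conj_iff' (h.sq hc), ← conj_eq_of_commute (h.sq hd) hbd.symm, commute_conj_iff' (h.sq hd)] at hh
    exact hbc hh
  have t3 := h.commute_of_conj (h.conj c hc b hb) hw hn t1 (e ▸ t2)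
  have t4 : Commute a (c * (d * c * d) * c) := (hac.mul_right ((had.mul_right hac).mul_right had)).mul_right hac
  have t5 : Commute b (c * (d * c * d) * c) := by
    have := (t4.mul_left t3).mul_left t4
    rwa [conj_conj (h.sq ha)] at this
  have t6 : Commute b ((d * c) ^ 3) := by
    simpa only [pow_succ, pow_zero, one_mul, mul_assoc] using hbd.mul_right t5
  have := Fact.mk h.prime
  have t7 := commute_of_mem_zpowers (h.orderOf_mul hd hc hdc) (npow_mem_zpowers _ 3) (fun e => by
    have := orderOf_dvd_of_pow_eq_one e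
    rw [h.orderOf_mul hd hc hdc] at this
    exact h3 ((Nat.prime_dvd_prime_iff_eq h.prime Nat.prime_three).1 this)) t6
  exact hbc (by simpa only [d2] using hbd.mul_right t7)

end CfsgLib.PTrans
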